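import Mathlib
import Cfsg.Prelude.Def_JComponents
import Cfsg.Agent.Lib.Helper85.KS12.S2949Core
import Cfsg.Agent.Lib.Helper46.Amalgam2

/-!
Kurzweil–Stellmacher chapter 12 cluster: transport of `J(T)`-components along automorphisms
fixing `J(T)`, and elementary facts on `J(T)`-components (helper81).
-/

set_option autoImplicit false

namespace Cfsg.Agent.Lib.Helper81.KS12

open Cfsg
open scoped commutatorElement

variable {G : Type*} [Group G]

/-- `Ω₁(Z(X))` commutes with automorphisms. -/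
theorem omegaCenterOf_map (φ : G ≃* G) (X : Subgroup G) :
    omegaCenterOf (X.map φ.toMonoidHom) = (omegaCenterOf X).map φ.toMonoidHom := by
  unfold omegaCenterOf omegaOne
  rw [MonoidHom.map_closure]
  congr 1
  ext y
  constructor
  · rintro ⟨hy1, hy2⟩
    obtain ⟨hyX, hyC⟩ := Subgroup.mem_inf.mp hy1
    obtain ⟨x, hx, rfl⟩ := hyX
    refine ⟨x, ⟨Subgroup.mem_inf.mpr ⟨hx, ?_⟩, ?_⟩, rfl⟩
    · apply Subgroup.mem_centralizer_iff.mpr
      intro q hq
      have h1 := Subgroup.mem_centralizer_iff.mp hyC (φ q) ⟨q, hq, rfl⟩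
      apply φ.injective
      simpa using h1
    · apply φ.injective
      simpa using hy2
  · rintro ⟨x, ⟨hx1, hx2⟩, rfl⟩
    obtain ⟨hxX, hxC⟩ := Subgroup.mem_inf.mp hx1
    refine ⟨Subgroup.mem_inf.mpr ⟨⟨x, hxX, rfl⟩, ?_⟩, ?_⟩
    · apply Subgroup.mem_centralizer_iff.mpr
      rintro _ ⟨q, hq, rfl⟩
      have h1 := Subgroup.mem_centralizer_iff.mp hxC q hq
      have h2 := congrArg φ h1
      simpa using h2
    · have h2 := congrArg φ hx2
      simpa using h2

/-- `W_K` commutes with automorphisms. -/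
theorem wOf_map (φ : G ≃* G) (K : Subgroup G) :
    wOf (K.map φ.toMonoidHom) = (wOf K).map φ.toMonoidHom := by
  unfold wOf
  rw [Subgroup.map_commutator, Cfsg.Agent.Lib.Helper46.pCoreOf_map, omegaCenterOf_map]

theorem wOf_le (K : Subgroup G) : wOf K ≤ K := by
  unfold wOf
  rw [Subgroup.commutator_le]
  intro u hu k hk
  have huK : u ∈ K := by
    have h1 : omegaCenterOf (pCoreOf 2 K) ≤ pCoreOf 2 K := by
      unfold omegaCenterOf omegaOne
      rw [Subgroup.closure_le]
      rintro x ⟨hx, -⟩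
      exact (Subgroup.mem_inf.mp hx).1
    exact Cfsg.Agent.Lib.Helper47.pCoreOf_le 2 K (h1 hu)
  exact K.mul_mem (K.mul_mem (K.mul_mem huK hk) (K.inv_mem huK)) (K.inv_mem hk)

/-- `IsJComponent T K` only depends on `J(T)`. -/
theorem isJComponent_congr {T T' K : Subgroup G}
    (h : thompsonSubgroupOf 2 T = thompsonSubgroupOf 2 T') :
    IsJComponent T K ↔ IsJComponent T' K := by
  unfold IsJComponent
  rw [h]

/-- `J(T)` normalizes every `J(T)`-component. -/
theorem isJComponent_thompson_le_normalizer {T K : Subgroup G} (hK : IsJComponent T K) :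
    thompsonSubgroupOf 2 T ≤ Subgroup.normalizer (K : Set G) := by
  have h2 : ⁅K, thompsonSubgroupOf 2 T⁆ = K := hK.2.1
  have key : ∀ j ∈ thompsonSubgroupOf 2 T, ∀ k ∈ K, j * k * j⁻¹ ∈ K := by
    intro j hj k hk
    have h3 : ⁅j, k⁆ ∈ ⁅thompsonSubgroupOf 2 T, K⁆ := Subgroup.commutator_mem_commutator hj hk
    rw [Subgroup.commutator_comm, h2] at h3
    have h4 : j * k * j⁻¹ = ⁅j, k⁆ * k := by
      rw [commutatorElement_def]; group
    rw [h4]
    exact K.mul_mem h3 hk
  intro j hj
  apply Cfsg.Agent.Lib.Helper85.KS12.mem_normalizer_of_conj_mem (key j hj)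
  intro x hx
  have := key j⁻¹ (Subgroup.inv_mem _ hj) x hx
  simpa using this

/-- `N_G(K) ≤ N_G(W_K)`. -/
theorem normalizer_le_normalizer_wOf (K : Subgroup G) :
    Subgroup.normalizer (K : Set G) ≤ Subgroup.normalizer (wOf K : Set G) := by
  intro g hg
  apply Cfsg.Agent.Lib.Helper11.mem_normalizer_of_map_conj_eq
  have h1 := wOf_map (MulAut.conj g) K
  rw [Cfsg.Agent.Lib.Helper11.map_conj_eq_of_mem_normalizer hg] at h1
  exact h1.symm

theorem isJComponent_thompson_le_normalizer_wOf {T K : Subgroup G} (hK : IsJComponent T K) :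
    thompsonSubgroupOf 2 T ≤ Subgroup.normalizer (wOf K : Set G) :=
  (isJComponent_thompson_le_normalizer hK).trans (normalizer_le_normalizer_wOf K)

/-- Transport of a `J(T)`-component along an automorphism fixing `J(T)`. -/
theorem isJComponent_map {T K : Subgroup G} (hK : IsJComponent T K) (φ : G ≃* G)
    (hJ : (thompsonSubgroupOf 2 T).map φ.toMonoidHom = thompsonSubgroupOf 2 T) :
    IsJComponent T (K.map φ.toMonoidHom) := by
  obtain ⟨h1, h2, h3, h4, h5, h6⟩ := hK
  have hinj : Function.Injective φ.toMonoidHom := φ.injective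
  have hJsymm : (thompsonSubgroupOf 2 T).map φ.symm.toMonoidHom = thompsonSubgroupOf 2 T := by
    conv_lhs => rw [← hJ]
    rw [Subgroup.map_map]
    have : φ.symm.toMonoidHom.comp φ.toMonoidHom = MonoidHom.id G := by
      ext x; simp
    rw [this, Subgroup.map_id]
  refine ⟨?_, ?_, ?_, ?_, ?_, ?_⟩
  · have hset : {g : G | g ∈ K.map φ.toMonoidHom ∧ Odd (orderOf g)} =
        φ.toMonoidHom '' {g : G | g ∈ K ∧ Odd (orderOf g)} := by
      ext y
      constructor
      · rintro ⟨⟨x, hx, rfl⟩, hodd⟩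
        refine ⟨x, ⟨hx, ?_⟩, rfl⟩
        have : orderOf (φ.toMonoidHom x) = orderOf x := orderOf_injective φ.toMonoidHom hinj x
        rwa [this] at hodd
      · rintro ⟨x, ⟨hx, hodd⟩, rfl⟩
        refine ⟨⟨x, hx, rfl⟩, ?_⟩
        have : orderOf (φ.toMonoidHom x) = orderOf x := orderOf_injective φ.toMonoidHom hinj x
        rwa [this]
    rw [hset, ← MonoidHom.map_closure, h1]
  · conv_lhs => rw [← hJ]
    rw [← Subgroup.map_commutator, h2]
  · rw [Cfsg.Agent.Lib.Helper46.pCoreOf_map, Subgroup.relIndex_map_map_of_injective _ _ hinj]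
    exact h3
  · intro S hS hJS
    obtain ⟨hS1, hS2, hS3⟩ := hS
    have hSS : (S.map φ.symm.toMonoidHom).map φ.toMonoidHom = S := by
      rw [Subgroup.map_map]
      have : φ.toMonoidHom.comp φ.symm.toMonoidHom = MonoidHom.id G := by
        ext x; simp
      rw [this, Subgroup.map_id]
    have hsup : (K ⊔ thompsonSubgroupOf 2 T).map φ.toMonoidHom =
        K.map φ.toMonoidHom ⊔ thompsonSubgroupOf 2 T := by
      rw [Subgroup.map_sup, hJ]
    have hS' : IsSylowTwoIn (S.map φ.symm.toMonoidHom) (K ⊔ thompsonSubgroupOf 2 T) := by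
      refine ⟨?_, hS2.map _, ?_⟩
      · rw [← Subgroup.map_le_map_iff_of_injective hinj, hSS, hsup]
        exact hS1
      · rw [← Subgroup.relIndex_map_map_of_injective _ _ hinj, hSS, hsup]
        exact hS3
    have hJS' : thompsonSubgroupOf 2 T ≤ S.map φ.symm.toMonoidHom := by
      rw [← hJsymm]
      exact Subgroup.map_mono hJS
    have h7 := h4 _ hS' hJS'
    rw [← hSS, Cfsg.Agent.Lib.Helper11.thompsonSubgroupOf_map 2 φ.toMonoidHom hinj, h7, hJ]
  · rw [wOf_map, Subgroup.card_map_of_injective hinj]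
    exact h5
  · rw [wOf_map]
    rintro _ ⟨w, hw, rfl⟩
    have := h6 w hw
    have h8 := congrArg φ.toMonoidHom this
    simpa using h8

/-- Conjugates of a `J(T)`-component by elements of `N_G(J(T))` are `J(T)`-components. -/
theorem isJComponent_map_conj {T K : Subgroup G} (hK : IsJComponent T K) {n : G}
    (hn : n ∈ Subgroup.normalizer (thompsonSubgroupOf 2 T : Set G)) :
    IsJComponent T (K.map (MulAut.conj n).toMonoidHom) :=
  isJComponent_map hK (MulAut.conj n) (Cfsg.Agent.Lib.Helper11.map_conj_eq_of_mem_normalizer hn)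

theorem wOf_isPGroup {T K : Subgroup G} (hK : IsJComponent T K) : IsPGroup 2 (wOf K) := by
  have : Fact (Nat.Prime 2) := ⟨Nat.prime_two⟩
  exact IsPGroup.of_card (n := 2) (by rw [hK.2.2.2.2.1]; norm_num)

theorem wOf_ne_bot {T K : Subgroup G} (hK : IsJComponent T K) : wOf K ≠ ⊥ := by
  intro h
  have hcard : Nat.card ↥(wOf K) = 4 := hK.2.2.2.2.1
  rw [h, Subgroup.card_bot] at hcard
  norm_num at hcard

theorem isTwoLocal_normalizer_wOf {T K : Subgroup G} (hK : IsJComponent T K) :
    IsTwoLocal (Subgroup.normalizer (wOf K : Set G)) :=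
  ⟨_, wOf_isPGroup hK, wOf_ne_bot hK, rfl⟩

/-- `W_K` is abelian. -/
theorem wOf_comm {T K : Subgroup G} (hK : IsJComponent T K) :
    ∀ a ∈ wOf K, ∀ b ∈ wOf K, a * b = b * a := by
  intro a ha b hb
  have h6 := hK.2.2.2.2.2
  have hab := h6 (a * b) (Subgroup.mul_mem _ ha hb)
  have haa := h6 a ha
  have hbb := h6 b hb
  have h1 : a * b = (a * b)⁻¹ := eq_inv_of_mul_eq_one_left hab
  have hb' : b⁻¹ = b := inv_eq_of_mul_eq_one_left hbb
  have ha' : a⁻¹ = a := inv_eq_of_mul_eq_one_left haa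
  rw [h1, mul_inv_rev, hb', ha']

end Cfsg.Agent.Lib.Helper81.KS12
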