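import Mathlib
import Cfsg.Statements.S2942
import Cfsg.Statements.S2948
import Cfsg.Statements.S2950
import Cfsg.Agent.Lib.Helper81.KS12.JCompConj

/-!
Kurzweil–Stellmacher chapter 12 cluster: statement S2950 (uniqueness of the maximal 2-local
subgroup containing `⟨K, J(T)⟩`), derived from the statements S2942, S2948, the generation
property `GenByJComponents` (package FF3) and the property `JCompCentralize` (two distinct
`J(T)`-components inside `L ∈ jOvergroups T` centralize each other's `W`).  (helper81)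

Idea: `Σ := {K'' a J(T)-component | K'' ≤ N_G(W_K)}` is a "clique" (its members centralize each
other's `W`), `U := ⨆_{K'' ∈ Σ} W_{K''}` is an elementary abelian 2-group and every maximal
2-local subgroup containing `⟨K, J(T)⟩` equals `N_G(U)`.
-/

set_option autoImplicit false

namespace Cfsg.Agent.Lib.Helper81.KS12

open Cfsg
open Cfsg.Agent.Lib.Helper85.KS12

variable {G : Type*} [Group G]

/-- Two distinct `J(T)`-components inside `L ∈ jOvergroups T` centralize each other's `W`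
(a consequence of the failure-of-factorization structure of `L`). -/
def JCompCentralize (G : Type*) [Group G] : Prop :=
  ∀ (T L K₁ K₂ : Subgroup G), IsPGroup 2 T → T ≠ ⊥ → L ∈ jOvergroups T →
    IsJComponent T K₁ → IsJComponent T K₂ → K₁ ≤ L → K₂ ≤ L → K₁ ≠ K₂ →
    K₂ ≤ Subgroup.centralizer (wOf K₁ : Set G)

/-- A supremum of pairwise commuting subgroups of exponent 2 is a 2-group. -/
theorem isPGroup_two_iSup {ι : Type*} (W : ι → Subgroup G)
    (hsq : ∀ i, ∀ w ∈ W i, w * w = 1)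
    (hcomm : ∀ i j, ∀ a ∈ W i, ∀ b ∈ W j, a * b = b * a) : IsPGroup 2 ↥(⨆ i, W i) := by
  have hcen : (⨆ i, W i) ≤ Subgroup.centralizer ((⨆ i, W i : Subgroup G) : Set G) := by
    apply iSup_le
    intro i
    rw [Subgroup.le_centralizer_iff]
    apply iSup_le
    intro j a ha
    rw [Subgroup.mem_centralizer_iff]
    intro b hb
    exact hcomm i j b hb a ha
  have hU : ∀ a ∈ ⨆ i, W i, ∀ b ∈ ⨆ i, W i, a * b = b * a := by
    intro a ha b hb
    exact (Subgroup.mem_centralizer_iff.mp (hcen ha) b hb).symm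
  have key : ∀ u ∈ ⨆ i, W i, u ∈ (⨆ i, W i) ∧ u * u = 1 := by
    intro u hu
    refine Subgroup.iSup_induction W (C := fun x => x ∈ (⨆ i, W i) ∧ x * x = 1) hu ?_ ?_ ?_
    · intro i x hx
      exact ⟨le_iSup W i hx, hsq i x hx⟩
    · exact ⟨Subgroup.one_mem _, by simp⟩
    · rintro x y ⟨hx, hxx⟩ ⟨hy, hyy⟩
      refine ⟨Subgroup.mul_mem _ hx hy, ?_⟩
      have h1 : x * y * (x * y) = x * (y * x) * y := by group
      rw [h1, ← hU x hx y hy]
      have h2 : x * (x * y) * y = (x * x) * (y * y) := by group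
      rw [h2, hxx, hyy, mul_one]
  intro u
  refine ⟨1, ?_⟩
  apply Subtype.ext
  have := (key u.1 u.2).2
  simp only [pow_one, Subgroup.coe_pow, Subgroup.coe_one]
  rw [pow_two]
  exact this

theorem conj_mem_iSup {ι : Type*} (W : ι → Subgroup G) (g : G)
    (h : ∀ i, ∀ w ∈ W i, g * w * g⁻¹ ∈ ⨆ j, W j) :
    ∀ u ∈ ⨆ i, W i, g * u * g⁻¹ ∈ ⨆ j, W j := by
  intro u hu
  refine Subgroup.iSup_induction W (C := fun x => g * x * g⁻¹ ∈ ⨆ j, W j) hu ?_ ?_ ?_
  · intro i x hx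
    exact h i x hx
  · simp
  · intro x y hx hy
    have h1 : g * (x * y) * g⁻¹ = (g * x * g⁻¹) * (g * y * g⁻¹) := by group
    rw [h1]
    exact Subgroup.mul_mem _ hx hy

/-- In a finite group every 2-local subgroup lies in a maximal 2-local subgroup. -/
theorem exists_isMaximalTwoLocal_ge [Finite G] {N : Subgroup G} (hN : IsTwoLocal N) :
    ∃ L : Subgroup G, IsMaximalTwoLocal L ∧ N ≤ L := by
  have hfin : {L : Subgroup G | IsTwoLocal L ∧ N ≤ L}.Finite := Set.toFinite _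
  obtain ⟨L, hL⟩ := hfin.exists_maximal ⟨N, hN, le_rfl⟩
  refine ⟨L, ⟨hL.1.1, ?_⟩, hL.1.2⟩
  intro N' hN' hLN'
  exact le_antisymm (hL.2 ⟨hN', hL.1.2.trans hLN'⟩ hLN') hLN'

theorem s2950_core [Finite G] (hL : Cfsg.IsCharacteristicTwoType G)
    (hN : ∀ N : Subgroup G, Cfsg.IsTwoLocal N → Group.IsSolvable ↥N)
    (hZ : ∀ S : Sylow 2 G, Subgroup.centralizer (Cfsg.omegaCenterOf (S : Subgroup G) : Set G) ≤
      Subgroup.normalizer ((S : Subgroup G) : Set G))
    (hO : Cfsg.pCore 2 G = ⊥)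
    (h2942 : type_of% (@Cfsg.CfsgFrozen.S2942 G _ _ hL hN hZ))
    (h2948 : type_of% (@Cfsg.CfsgFrozen.S2948 G _ _ hL hN hZ hO))
    (hGen : ∀ T L : Subgroup G, IsPGroup 2 T → T ≠ ⊥ → L ∈ jOvergroups T → GenByJComponents T L)
    (hComm : JCompCentralize G)
    (S : Sylow 2 G) (M : Subgroup G) (hM : Cfsg.IsTwoLocal M)
    (hMJ : Subgroup.normalizer (Cfsg.thompsonSubgroupOf 2 (S : Subgroup G) : Set G) ≤ M)
    (T : Subgroup G) (hT : T ∈ Cfsg.maxStraddlingTwoSubgroups M)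
    (K : Subgroup G) (hK : K ∈ Cfsg.jComponentsOutside M T) :
    ∃ L : Subgroup G, Cfsg.IsMaximalTwoLocal L ∧ K ⊔ Cfsg.thompsonSubgroupOf 2 T ≤ L ∧
      (∀ L' : Subgroup G, Cfsg.IsMaximalTwoLocal L' → K ⊔ Cfsg.thompsonSubgroupOf 2 T ≤ L' →
        L' = L) ∧
      (K.subgroupOf L).IsSubnormal ∧ Cfsg.IsSylowTwoIn T L := by
  have : Fact (Nat.Prime 2) := ⟨Nat.prime_two⟩
  obtain ⟨hT2, hT1, hTM, L₀, hL₀2, hTL₀, hL₀M⟩ := hT.1
  obtain ⟨⟨hKc, hK0⟩, hKM, hKO⟩ := hK
  have hJT : thompsonSubgroupOf 2 T ≤ T := Cfsg.Agent.Lib.Helper11.thompsonSubgroupOf_le 2 T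
  have hJ2 : IsPGroup 2 (thompsonSubgroupOf 2 T) := hT2.to_le hJT
  -- (F1): 2-locals not in `M` over `J(T)`
  have F1 : ∀ L' : Subgroup G, IsTwoLocal L' → ¬ L' ≤ M → thompsonSubgroupOf 2 T ≤ L' →
      ∃ T' : Subgroup G, IsSylowTwoIn T' L' ∧ thompsonSubgroupOf 2 T ≤ T' ∧
        thompsonSubgroupOf 2 T = thompsonSubgroupOf 2 T' ∧ L' ∈ jOvergroups T' ∧
        IsPGroup 2 T' ∧ T' ≠ ⊥ := by
    intro L' hL'2 hL'M hJL'
    obtain ⟨T', hT', hJT'⟩ := exists_isSylowTwoIn_ge hJ2 hJL'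
    obtain ⟨h1, h2, h3, -⟩ := h2948 S M hM hMJ T hT L' hL'2 hL'M T' hT' hJT'
    exact ⟨T', hT', hJT', h1, h3, h2.1, h2.2.1⟩
  -- `N_G(J(T)) ≤ M`
  have hNJM : Subgroup.normalizer (thompsonSubgroupOf 2 T : Set G) ≤ M := by
    obtain ⟨T₀, hT₀, hTT₀⟩ := exists_isSylowTwoIn_ge hT2 hTL₀
    have hLjT : L₀ ∈ jOvergroups T :=
      ((h2948 S M hM hMJ T hT L₀ hL₀2 hL₀M T₀ hT₀ (hJT.trans hTT₀)).2.2.2 hTL₀).1
    obtain ⟨-, hJnot, -⟩ := hLjT
    have hJne : thompsonSubgroupOf 2 T ≠ ⊥ := by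
      intro h
      exact hJnot (h ▸ bot_le)
    by_contra hNM
    have hN2 : IsTwoLocal (Subgroup.normalizer (thompsonSubgroupOf 2 T : Set G)) :=
      ⟨_, hJ2, hJne, rfl⟩
    have hTN : T ≤ Subgroup.normalizer (thompsonSubgroupOf 2 T : Set G) :=
      Subgroup.le_normalizer.trans
        (Cfsg.Agent.Lib.Helper11.normalizer_le_normalizer_thompsonSubgroupOf 2 T)
    obtain ⟨T₁, hT₁, hTT₁⟩ := exists_isSylowTwoIn_ge hT2 hTN
    have h1 := ((h2948 S M hM hMJ T hT _ hN2 hNM T₁ hT₁ (hJT.trans hTT₁)).2.2.2 hTN).1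
    exact h1.2.1 (le_pCoreOf_of_normal hJ2 Subgroup.le_normalizer le_rfl)
  -- (A): the clique property
  have A : ∀ K' : Subgroup G, IsJComponent T K' → ¬ K' ≤ M → ∀ K₁ K₂ : Subgroup G,
      IsJComponent T K₁ → IsJComponent T K₂ → K₁ ≤ Subgroup.normalizer (wOf K' : Set G) →
      K₂ ≤ Subgroup.normalizer (wOf K' : Set G) → K₁ ≠ K₂ →
      K₂ ≤ Subgroup.centralizer (wOf K₁ : Set G) := by
    intro K' hK' hK'M K₁ K₂ hK₁ hK₂ h1 h2 hne
    have hN2 := isTwoLocal_normalizer_wOf hK'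
    have hNM : ¬ Subgroup.normalizer (wOf K' : Set G) ≤ M := fun h =>
      hK'M ((le_normalizer_wOf K').trans h)
    obtain ⟨T', hT', hJT', hJeq, hLj, hT'2, hT'1⟩ :=
      F1 _ hN2 hNM (isJComponent_thompson_le_normalizer_wOf hK')
    exact hComm T' _ K₁ K₂ hT'2 hT'1 hLj ((isJComponent_congr hJeq).mp hK₁)
      ((isJComponent_congr hJeq).mp hK₂) h1 h2 hne
  -- (B): elements of `N_G(J(T))` moving `K` inside the clique preserve the clique
  have B : ∀ n : G, n ∈ Subgroup.normalizer (thompsonSubgroupOf 2 T : Set G) →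
      K.map (MulAut.conj n).toMonoidHom ≤ Subgroup.normalizer (wOf K : Set G) →
      ∀ K'' : Subgroup G, IsJComponent T K'' → K'' ≤ Subgroup.normalizer (wOf K : Set G) →
        K''.map (MulAut.conj n).toMonoidHom ≤ Subgroup.normalizer (wOf K : Set G) := by
    intro n hn hKn K'' hK'' hK''N
    have hKnc : IsJComponent T (K.map (MulAut.conj n).toMonoidHom) := isJComponent_map_conj hKc hn
    have hKnM : ¬ K.map (MulAut.conj n).toMonoidHom ≤ M := by
      intro h
      apply hKM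
      intro k hk
      have h1 : n * k * n⁻¹ ∈ M := h ⟨k, hk, by simp [MulAut.conj_apply]⟩
      have hnM : n ∈ M := hNJM hn
      have h2 : k = n⁻¹ * (n * k * n⁻¹) * n := by group
      rw [h2]
      exact M.mul_mem (M.mul_mem (M.inv_mem hnM) h1) hnM
    have hK1 : K ≤ Subgroup.normalizer (wOf (K.map (MulAut.conj n).toMonoidHom) : Set G) := by
      by_cases hEq : K.map (MulAut.conj n).toMonoidHom = K
      · rw [hEq]; exact le_normalizer_wOf K
      · exact (A K hKc hKM _ K hKnc hKc hKn (le_normalizer_wOf K) hEq).trans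
          (Subgroup.centralizer_le_normalizer _)
    have h3 : K''.map (MulAut.conj n).toMonoidHom ≤
        Subgroup.normalizer (wOf (K.map (MulAut.conj n).toMonoidHom) : Set G) := by
      rw [wOf_map, ← Subgroup.map_equiv_normalizer_eq]
      exact Subgroup.map_mono hK''N
    by_cases hEq2 : K''.map (MulAut.conj n).toMonoidHom = K
    · rw [hEq2]; exact le_normalizer_wOf K
    · exact (A _ hKnc hKnM K _ hKc (isJComponent_map_conj hK'' hn) hK1 h3 (Ne.symm hEq2)).trans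
        (Subgroup.centralizer_le_normalizer _)
  -- (C): the subgroup `U`
  obtain ⟨W, hWdef⟩ : ∃ W : {K'' : Subgroup G // IsJComponent T K'' ∧
      K'' ≤ Subgroup.normalizer (wOf K : Set G)} → Subgroup G, W = fun i => wOf i.1 := ⟨_, rfl⟩
  have hWi : ∀ i, W i = wOf i.1 := fun i => by rw [hWdef]
  have hKsig : IsJComponent T K ∧ K ≤ Subgroup.normalizer (wOf K : Set G) :=
    ⟨hKc, le_normalizer_wOf K⟩
  have hU2 : IsPGroup 2 ↥(⨆ i, W i) := by
    apply isPGroup_two_iSup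
    · intro i w hw
      rw [hWi] at hw
      exact i.2.1.2.2.2.2.2 w hw
    · intro i j a ha b hb
      rw [hWi] at ha hb
      by_cases hij : i.1 = j.1
      · rw [← hij] at hb
        exact wOf_comm i.2.1 a ha b hb
      · have h1 := A K hKc hKM i.1 j.1 i.2.1 j.2.1 i.2.2 j.2.2 hij
        have h2 := h1 (wOf_le j.1 hb)
        exact (Subgroup.mem_centralizer_iff.mp h2 a ha)
  have hUne : (⨆ i, W i) ≠ ⊥ := by
    intro h
    have h1 : wOf K ≤ ⨆ i, W i := by
      have := le_iSup W ⟨K, hKsig⟩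
      rwa [hWi] at this
    rw [h] at h1
    exact wOf_ne_bot hKc (le_bot_iff.mp h1)
  have hUloc : IsTwoLocal (Subgroup.normalizer ((⨆ i, W i : Subgroup G) : Set G)) :=
    ⟨_, hU2, hUne, rfl⟩
  -- members of the clique normalize `U`
  have hCl : ∀ K₁ : Subgroup G, IsJComponent T K₁ → K₁ ≤ Subgroup.normalizer (wOf K : Set G) →
      K₁ ≤ Subgroup.normalizer ((⨆ i, W i : Subgroup G) : Set G) := by
    intro K₁ hK₁ hK₁N
    have key : ∀ k ∈ K₁, ∀ i, ∀ w ∈ W i, k * w * k⁻¹ ∈ ⨆ j, W j := by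
      intro k hk i w hw
      apply le_iSup W i
      rw [hWi] at hw ⊢
      by_cases hi : i.1 = K₁
      · have h1 := (le_normalizer_wOf K₁) hk
        rw [← hi] at h1
        exact (Subgroup.mem_normalizer_iff.mp h1 w).mp hw
      · have h1 := A K hKc hKM i.1 K₁ i.2.1 hK₁ i.2.2 hK₁N hi
        have h2 := Subgroup.mem_centralizer_iff.mp (h1 hk) w hw
        have h3 : k * w * k⁻¹ = w := by
          rw [← h2]; group
        rw [h3]; exact hw
    intro k hk
    apply mem_normalizer_of_conj_mem (conj_mem_iSup W k (key k hk))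
    have := conj_mem_iSup W k⁻¹ (key k⁻¹ (K₁.inv_mem hk))
    simpa using this
  -- (D): every maximal 2-local over `K ⊔ J(T)` is `N_G(U)`
  have D : ∀ L' : Subgroup G, IsMaximalTwoLocal L' → K ⊔ thompsonSubgroupOf 2 T ≤ L' →
      L' = Subgroup.normalizer ((⨆ i, W i : Subgroup G) : Set G) := by
    intro L' hL'max hKJL'
    have hKL' : K ≤ L' := le_sup_left.trans hKJL'
    have hJL' : thompsonSubgroupOf 2 T ≤ L' := le_sup_right.trans hKJL'
    have hL'M : ¬ L' ≤ M := fun h => hKM (hKL'.trans h)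
    obtain ⟨T', hT', hJT', hJeq, hLj, hT'2, hT'1⟩ := F1 L' hL'max.1 hL'M hJL'
    have hKc' : IsJComponent T' K := (isJComponent_congr hJeq).mp hKc
    -- `J(T)`-components of `L'` lie in the clique
    have hin : ∀ K₁ : Subgroup G, IsJComponent T K₁ → K₁ ≤ L' →
        K₁ ≤ Subgroup.normalizer (wOf K : Set G) := by
      intro K₁ hK₁ hK₁L'
      by_cases hEq : K = K₁
      · rw [← hEq]; exact le_normalizer_wOf K
      · exact (hComm T' L' K K₁ hT'2 hT'1 hLj hKc' ((isJComponent_congr hJeq).mp hK₁) hKL'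
          hK₁L' hEq).trans (Subgroup.centralizer_le_normalizer _)
    have hle : L' ≤ Subgroup.normalizer ((⨆ i, W i : Subgroup G) : Set G) := by
      refine (hGen T' L' hT'2 hT'1 hLj).trans (sup_le (sSup_le ?_) ?_)
      · rintro K₁ ⟨hK₁, hK₁L'⟩
        have hK₁' : IsJComponent T K₁ := (isJComponent_congr hJeq).mpr hK₁
        exact hCl K₁ hK₁' (hin K₁ hK₁' hK₁L')
      · rintro n ⟨hnL', hnJ⟩
        rw [← hJeq] at hnJ
        have key : ∀ m : G, m ∈ L' → m ∈ Subgroup.normalizer (thompsonSubgroupOf 2 T : Set G) →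
            ∀ i, ∀ w ∈ W i, m * w * m⁻¹ ∈ ⨆ j, W j := by
          intro m hmL' hmJ i w hw
          have hKm : K.map (MulAut.conj m).toMonoidHom ≤ L' := by
            rintro _ ⟨k, hk, rfl⟩
            simp only [MulEquiv.coe_toMonoidHom, MulAut.conj_apply]
            exact L'.mul_mem (L'.mul_mem hmL' (hKL' hk)) (L'.inv_mem hmL')
          have hKmN := hin _ (isJComponent_map_conj hKc hmJ) hKm
          have h1 := B m hmJ hKmN i.1 i.2.1 i.2.2
          have h2 : m * w * m⁻¹ ∈ wOf (i.1.map (MulAut.conj m).toMonoidHom) := by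
            rw [wOf_map]
            rw [hWi] at hw
            exact ⟨w, hw, by simp [MulAut.conj_apply]⟩
          have h3 := le_iSup W ⟨i.1.map (MulAut.conj m).toMonoidHom,
            isJComponent_map_conj i.2.1 hmJ, h1⟩
          rw [hWi] at h3
          exact h3 h2
        apply mem_normalizer_of_conj_mem (conj_mem_iSup W n (key n hnL' hnJ))
        have := conj_mem_iSup W n⁻¹ (key n⁻¹ (L'.inv_mem hnL') (Subgroup.inv_mem _ hnJ))
        simpa using this
    exact (hL'max.2 _ hUloc hle).symm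
  -- (E): existence
  have hKT2 : IsTwoLocal (Subgroup.normalizer (pCoreOf 2 (K ⊔ T) : Set G)) :=
    ⟨_, Cfsg.Agent.Lib.Helper47.pCoreOf_isPGroup 2 (K ⊔ T), hKO, rfl⟩
  obtain ⟨L, hLmax, hNL⟩ := exists_isMaximalTwoLocal_ge hKT2
  have hKTL : K ⊔ T ≤ L := (Cfsg.Agent.Lib.Helper47.le_normalizer_pCoreOf 2 (K ⊔ T)).trans hNL
  have hKL : K ≤ L := le_sup_left.trans hKTL
  have hTL : T ≤ L := le_sup_right.trans hKTL
  have hLM : ¬ L ≤ M := fun h => hKM (hKL.trans h)
  obtain ⟨T₀, hT₀, hTT₀⟩ := exists_isSylowTwoIn_ge hT2 hTL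
  have hLjT : L ∈ jOvergroups T :=
    ((h2948 S M hM hMJ T hT L hLmax.1 hLM T₀ hT₀ (hJT.trans hTT₀)).2.2.2 hTL).1
  have hKJL : K ⊔ thompsonSubgroupOf 2 T ≤ L := sup_le hKL (hJT.trans hTL)
  refine ⟨L, hLmax, hKJL, ?_, h2942 T hT2 hT1 L hLjT K hKc hKL, hLjT.1⟩
  intro L' hL'max hKJL'
  rw [D L' hL'max hKJL', D L hLmax hKJL]

end Cfsg.Agent.Lib.Helper81.KS12
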