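import Mathlib
import Cfsg.Agent.S2946
import Cfsg.Agent.Lib.Helper81.KS12.S2950Core
import Cfsg.Agent.Lib.Helper76.KS12.WSys
import Cfsg.Agent.Lib.Helper41.KS12.Dich
import Cfsg.Agent.Lib.Helper48.KS12.Sigma
import Cfsg.Agent.Lib.Helper86.KS12.Count
import Cfsg.Agent.Lib.Helper86.KS12.Step56
import Cfsg.Agent.Lib.Helper72.KS12.Step4
import Cfsg.Agent.Lib.Helper2.KS12.PZ

/-!
Kurzweil–Stellmacher chapter 12 cluster, statement S2951, case `T = S`, scenario (U), step 5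
(at least two `J(S)`-components inside `L`): the assembly of steps 5.4, 5.5 and 5.6 of helper34's
proof (note 2673), given the properties (P2), (P3) of `U = ⨆ W_i` as hypotheses.  (helper81)
-/

set_option autoImplicit false

namespace Cfsg.Agent.Lib.Helper81.KS12

open Cfsg

variable {G : Type*} [Group G]

/-- Squares in a supremum of pairwise commuting subgroups of exponent 2. -/
theorem sq_iSup {ι : Type*} (W : ι → Subgroup G)
    (hsq : ∀ i, ∀ w ∈ W i, w * w = 1)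
    (hcomm : ∀ i j, ∀ a ∈ W i, ∀ b ∈ W j, a * b = b * a) : ∀ u ∈ ⨆ i, W i, u * u = 1 := by
  have hcen : (⨆ i, W i) ≤ Subgroup.centralizer ((⨆ i, W i : Subgroup G) : Set G) := by
    apply iSup_le
    intro i
    rw [Subgroup.le_centralizer_iff]
    apply iSup_le
    intro j a ha
    rw [Subgroup.mem_centralizer_iff]
    intro b hb
    exact hcomm i j b hb a ha
  have hU : ∀ a ∈ ⨆ i, W i, ∀ b ∈ ⨆ i, W i, a * b = b * a := by
    intro a ha b hb
    exact (Subgroup.mem_centralizer_iff.mp (hcen ha) b hb).symm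
  have key : ∀ u ∈ ⨆ i, W i, u ∈ (⨆ i, W i) ∧ u * u = 1 := by
    intro u hu
    refine Subgroup.iSup_induction W (C := fun x => x ∈ (⨆ i, W i) ∧ x * x = 1) hu ?_ ?_ ?_
    · intro i x hx
      exact ⟨le_iSup W i hx, hsq i x hx⟩
    · exact ⟨Subgroup.one_mem _, by simp⟩
    · rintro x y ⟨hx, hxx⟩ ⟨hy, hyy⟩
      refine ⟨Subgroup.mul_mem _ hx hy, ?_⟩
      have h1 : x * y * (x * y) = x * (y * x) * y := by group
      rw [h1, ← hU x hx y hy]
      have h2 : x * (x * y) * y = (x * x) * (y * y) := by group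
      rw [h2, hxx, hyy, mul_one]
  intro u hu
  exact (key u hu).2

/-- A subgroup of order 2 has exactly one non-identity element. -/
theorem exists_unique_ne_one_of_card_two {H : Subgroup G} (h : Nat.card H = 2) :
    ∃ z ∈ H, z ≠ 1 ∧ ∀ x ∈ H, x = 1 ∨ x = z := by
  obtain ⟨x, y, hxy, huniv⟩ := Nat.card_eq_two_iff.mp h
  have hall : ∀ w : H, w = x ∨ w = y := by
    intro w
    have hw : w ∈ ({x, y} : Set H) := by rw [huniv]; trivial
    rcases hw with hw | hw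
    · exact Or.inl hw
    · exact Or.inr hw
  rcases hall 1 with h1 | h1
  · refine ⟨y, y.2, ?_, ?_⟩
    · intro hy
      apply hxy
      rw [← h1]
      exact Subtype.ext hy.symm
    · intro w hw
      rcases hall ⟨w, hw⟩ with h2 | h2
      · left
        have := congrArg Subtype.val (h2.trans h1.symm)
        simpa using this
      · right
        exact congrArg Subtype.val h2
  · refine ⟨x, x.2, ?_, ?_⟩
    · intro hx
      apply hxy
      rw [← h1]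
      exact Subtype.ext hx
    · intro w hw
      rcases hall ⟨w, hw⟩ with h2 | h2
      · right
        exact congrArg Subtype.val h2
      · left
        have := congrArg Subtype.val (h2.trans h1.symm)
        simpa using this

/-- Step 5 of the (U)-case, abstract form: a family `W` of four-groups as in the W-system of the
`J(S)`-components of `L`, with (P2), (P3), and the data `T'`, `K'`, `L'` of steps 1–3, is
contradictory. -/
theorem step5_abstract [Finite G] (hL : Cfsg.IsCharacteristicTwoType G)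
    (hN : ∀ N : Subgroup G, Cfsg.IsTwoLocal N → Group.IsSolvable ↥N)
    (hZ : ∀ S : Sylow 2 G, Subgroup.centralizer (Cfsg.omegaCenterOf (S : Subgroup G) : Set G) ≤
      Subgroup.normalizer ((S : Subgroup G) : Set G))
    {ι : Type*} [Finite ι] (W : ι → Subgroup G) (S : Sylow 2 G) (L : Subgroup G)
    (hLS : IsSylowTwoIn (S : Subgroup G) L)
    (hW4 : ∀ i, Nat.card ↥(W i) = 4) (hW2 : ∀ i, ∀ w ∈ W i, w * w = 1)
    (hcomm : ∀ i j, i ≠ j → ∀ a ∈ W i, ∀ b ∈ W j, a * b = b * a) (hind : iSupIndep W)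
    (hk : ∃ i j : ι, i ≠ j) (hWL : ∀ i, W i ≤ L)
    (hperm : ∀ l ∈ L, ∀ i, ∃ j, (W i).map (MulAut.conj l).toMonoidHom = W j)
    (hP2 : ∀ u ∈ ⨆ i, W i, u ≠ 1 → Subgroup.centralizer ({u} : Set G) ≤ L)
    (hP3 : ∀ u ∈ ⨆ i, W i, u ≠ 1 → ∀ g : G, g * u * g⁻¹ ∈ ⨆ i, W i → g ∈ L)
    (Z₀ : Subgroup G) (hSZ₀ : (S : Subgroup G) ≤ Subgroup.normalizer (Z₀ : Set G))
    (hZ₀W : ∀ i, Nat.card ↥(Z₀ ⊓ W i) = 2)
    (T' K' L' : Subgroup G) (hT'2 : IsPGroup 2 ↥T') (hT'1 : T' ≠ ⊥)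
    (hT'S : T' ≤ (S : Subgroup G)) (hK' : IsJComponent T' K') (hK'L : ¬ K' ≤ L)
    (hL'max : IsMaximalTwoLocal L') (hT'L' : IsSylowTwoIn T' L')
    (hZQ : omegaCenterOf (S : Subgroup G) ≤ pCoreOf 2 L')
    (hcard : Nat.card ↥(omegaCenterOf (thompsonSubgroupOf 2 T')) ≤ 4) : False := by
  classical
  have : Fact (Nat.Prime 2) := ⟨Nat.prime_two⟩
  have hS2 : IsPGroup 2 (S : Subgroup G) := S.isPGroup'
  -- `U = ⨆ W i` is elementary abelian
  have hWcomm : ∀ i j, ∀ a ∈ W i, ∀ b ∈ W j, a * b = b * a := by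
    intro i j a ha b hb
    by_cases hij : i = j
    · subst hij
      exact Cfsg.Agent.Lib.Helper86.KS12.comm_of_sq (hW2 i) a ha b hb
    · exact hcomm i j hij a ha b hb
  have hU2 : ∀ u ∈ ⨆ i, W i, u * u = 1 := sq_iSup W hW2 hWcomm
  have hUc : ∀ a ∈ ⨆ i, W i, ∀ b ∈ ⨆ i, W i, a * b = b * a :=
    Cfsg.Agent.Lib.Helper86.KS12.comm_of_sq hU2
  have hUL : (⨆ i, W i) ≤ L := iSup_le hWL
  -- `L` normalizes `U`
  have hconj : ∀ l ∈ L, ∀ u ∈ ⨆ i, W i, l * u * l⁻¹ ∈ ⨆ i, W i := by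
    intro l hl
    apply conj_mem_iSup W l
    intro i w hw
    obtain ⟨j, hj⟩ := hperm l hl i
    have h1 : l * w * l⁻¹ ∈ W j := by
      rw [← hj]
      exact ⟨w, hw, by simp [MulAut.conj_apply]⟩
    exact le_iSup W j h1
  have hLU : L ≤ Subgroup.normalizer ((⨆ i, W i : Subgroup G) : Set G) := by
    intro l hl
    apply Cfsg.Agent.Lib.Helper85.KS12.mem_normalizer_of_conj_mem (hconj l hl)
    intro x hx
    have h1 := hconj l⁻¹ (L.inv_mem hl) x hx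
    rwa [inv_inv] at h1
  have hUP : IsPGroup 2 ↥(⨆ i, W i) := isPGroup_two_iSup W hW2 hWcomm
  have hUS : (⨆ i, W i) ≤ (S : Subgroup G) :=
    Cfsg.Agent.Lib.Helper85.KS12.le_of_isSylowTwoIn hLS hUP hUL hLU
  obtain ⟨i₀, j₀, hij₀⟩ := hk
  have hU1 : (⨆ i, W i) ≠ ⊥ := by
    intro h
    have h1 : W i₀ ≤ ⊥ := h ▸ le_iSup W i₀
    have h4 := hW4 i₀
    rw [le_bot_iff.mp h1, Subgroup.card_bot] at h4
    omega
  -- a nontrivial element of `U ∩ Z(S)`
  obtain ⟨x, hxU, hx1, hxc⟩ :=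
    Cfsg.Agent.Lib.Helper72.KS12.exists_central_of_le_normalizer hS2 hUS hU1 (hLS.1.trans hLU)
  have hxZ : x ∈ omegaCenterOf (S : Subgroup G) := by
    apply Cfsg.Agent.Lib.Helper2.KS12.mem_omegaCenterOf (hUS hxU)
    · rw [Subgroup.mem_centralizer_iff]
      intro s hs
      exact hxc s hs
    · rw [pow_two]
      exact hU2 x hxU
  have hxQ : x ∈ pCoreOf 2 L' := hZQ hxZ
  have hQT' : pCoreOf 2 L' ≤ T' := Cfsg.Agent.Lib.Helper2.KS12.pCoreOf_le_of_isSylowTwoIn hT'L'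
  have hT'L : T' ≤ L := hT'S.trans hLS.1
  -- step 5.4: `U ≤ T'`
  have hc : ∀ n ∈ L', ∀ a ∈ ⨆ i, W i, ∀ b ∈ ⨆ i, W i,
      a * (n * b * n⁻¹) = (n * b * n⁻¹) * a := by
    intro n hn a ha b hb
    by_cases hnL : n ∈ L
    · exact hUc a ha _ (hconj n hnL b hb)
    · have hxn : n * x * n⁻¹ ∈ L := by
        have h1 : n * x * n⁻¹ ∈ pCoreOf 2 L' :=
          (Subgroup.mem_normalizer_iff.mp
            (Cfsg.Agent.Lib.Helper47.le_normalizer_pCoreOf 2 L' hn) x).mp hxQ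
        exact hT'L (hQT' h1)
      exact Cfsg.Agent.Lib.Helper41.KS12.dich W L hW4 hW2 hcomm hind ⟨i₀, j₀, hij₀⟩ hperm hP2 hP3
        n hnL x hxU hx1 hxn a ha b hb
  have hUT' : (⨆ i, W i) ≤ T' :=
    (Cfsg.Agent.Lib.Helper48.KS12.le_pCoreOf_of_conj_comm _ L' hL'max hU1 hU2 hc).trans hQT'
  -- step 5.5: every `A ∈ 𝒜(T')` normalizes every `W i`
  have hA : ∀ A ∈ Cfsg.Agent.Lib.Helper11.maxElemAbIn 2 T', ∀ a ∈ A, ∀ i,
      (W i).map (MulAut.conj a).toMonoidHom = W i := by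
    intro A hA
    obtain ⟨hAT', hAe, hAmax⟩ := hA
    rw [Cfsg.Agent.Lib.Helper10.isElementaryAbelian_iff] at hAe
    refine Cfsg.Agent.Lib.Helper86.KS12.count W hW4 hW2 hcomm hind T' A
      (fun i => (le_iSup W i).trans hUT') hAT' ?_ hAe.1 ?_ ?_
    · intro a ha
      have h1 := hAe.2 a ha
      rwa [pow_two] at h1
    · intro B hBT' hB2 hBc
      apply hAmax B hBT'
      rw [Cfsg.Agent.Lib.Helper10.isElementaryAbelian_iff]
      exact ⟨hBc, fun b hb => by rw [pow_two]; exact hB2 b hb⟩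
    · intro a ha i
      exact hperm a (hT'L (hAT' ha)) i
  -- step 5.6
  have hz : ∀ i, ∃ z ∈ Z₀ ⊓ W i, z ≠ 1 ∧ ∀ y ∈ Z₀ ⊓ W i, y = 1 ∨ y = z :=
    fun i => exists_unique_ne_one_of_card_two (hZ₀W i)
  obtain ⟨z₁, hz₁m, hz₁1, hz₁u⟩ := hz i₀
  obtain ⟨z₂, hz₂m, hz₂1, hz₂u⟩ := hz j₀
  have hne : z₁ ≠ z₂ := by
    intro h
    have h1 : z₁ ∈ W i₀ ⊓ W j₀ := ⟨hz₁m.2, h ▸ hz₂m.2⟩
    have hdisj : Disjoint (W i₀) (W j₀) := hind.pairwiseDisjoint hij₀
    rw [hdisj.eq_bot] at h1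
    exact hz₁1 (Subgroup.mem_bot.mp h1)
  have hcz : ∀ i z, z ∈ Z₀ ⊓ W i → z ≠ 1 → (∀ y ∈ Z₀ ⊓ W i, y = 1 ∨ y = z) →
      ∀ A ∈ Cfsg.Agent.Lib.Helper11.maxElemAbIn 2 T', ∀ a ∈ A, a * z = z * a := by
    intro i z hzm hz1 hzu A hAm a ha
    have haS : a ∈ (S : Subgroup G) := hT'S (hAm.1 ha)
    have h1 : a * z * a⁻¹ ∈ Z₀ := (Subgroup.mem_normalizer_iff.mp (hSZ₀ haS) z).mp hzm.1
    have h2 : a * z * a⁻¹ ∈ W i := by
      have h3 := hA A hAm a ha i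
      rw [← h3]
      exact ⟨z, hzm.2, by simp [MulAut.conj_apply]⟩
    rcases hzu _ ⟨h1, h2⟩ with h3 | h3
    · exfalso
      apply hz1
      have h4 : z = a⁻¹ * (a * z * a⁻¹) * a := by group
      rw [h4, h3]
      group
    · calc a * z = (a * z * a⁻¹) * a := by group
        _ = z * a := by rw [h3]
  obtain ⟨y, hyU, hy1, hKy⟩ :=
    Cfsg.Agent.Lib.Helper86.KS12.step56 hL hN hZ T' K' hT'2 hT'1 hK' hcard (⨆ i, W i) z₁ z₂
      (le_iSup W i₀ hz₁m.2) (le_iSup W j₀ hz₂m.2) (hUT' (le_iSup W i₀ hz₁m.2))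
      (hUT' (le_iSup W j₀ hz₂m.2)) hz₁1 hz₂1 hne (hW2 i₀ z₁ hz₁m.2) (hW2 j₀ z₂ hz₂m.2)
      (hcz i₀ z₁ hz₁m hz₁1 hz₁u) (hcz j₀ z₂ hz₂m hz₂1 hz₂u)
  exact hK'L (hKy.trans (hP2 y hyU hy1))

/-- Step 5 of the (U)-case of S2951: if `L ∈ jOvergroups S` contains at least two
`J(S)`-components, `U = ⨆ W_K` has the properties (P2), (P3), and `T'`, `K'`, `L'` are as in
`exists_straddle_data`, we have a contradiction. -/
theorem step5_false [Finite G] (hL : Cfsg.IsCharacteristicTwoType G)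
    (hN : ∀ N : Subgroup G, Cfsg.IsTwoLocal N → Group.IsSolvable ↥N)
    (hZ : ∀ S : Sylow 2 G, Subgroup.centralizer (Cfsg.omegaCenterOf (S : Subgroup G) : Set G) ≤
      Subgroup.normalizer ((S : Subgroup G) : Set G))
    (hComm : Cfsg.Agent.Lib.Helper81.KS12.JCompCentralize G) (S : Sylow 2 G) (L : Subgroup G)
    (hLS : L ∈ jOvergroups (S : Subgroup G))
    (hGen : Cfsg.Agent.Lib.Helper85.KS12.GenByJComponents (S : Subgroup G) L)
    (hk : ∃ i j : {K : Subgroup G // IsJComponent (S : Subgroup G) K ∧ K ≤ L}, i ≠ j)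
    (hP2 : ∀ u ∈ ⨆ i : {K : Subgroup G // IsJComponent (S : Subgroup G) K ∧ K ≤ L}, wOf i.1,
      u ≠ 1 → Subgroup.centralizer ({u} : Set G) ≤ L)
    (hP3 : ∀ u ∈ ⨆ i : {K : Subgroup G // IsJComponent (S : Subgroup G) K ∧ K ≤ L}, wOf i.1,
      u ≠ 1 → ∀ g : G, g * u * g⁻¹ ∈
        ⨆ i : {K : Subgroup G // IsJComponent (S : Subgroup G) K ∧ K ≤ L}, wOf i.1 → g ∈ L)
    (T' K' L' : Subgroup G) (hT'2 : IsPGroup 2 ↥T') (hT'1 : T' ≠ ⊥)
    (hT'S : T' ≤ (S : Subgroup G)) (hK' : IsJComponent T' K') (hK'L : ¬ K' ≤ L)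
    (hL'max : IsMaximalTwoLocal L') (hT'L' : IsSylowTwoIn T' L')
    (hZQ : omegaCenterOf (S : Subgroup G) ≤ pCoreOf 2 L')
    (hcard : Nat.card ↥(omegaCenterOf (thompsonSubgroupOf 2 T')) ≤ 4) : False := by
  have : Fact (Nat.Prime 2) := ⟨Nat.prime_two⟩
  have hS2 : IsPGroup 2 (S : Subgroup G) := S.isPGroup'
  have hS1 : (S : Subgroup G) ≠ ⊥ := by
    intro h
    exact hT'1 (le_bot_iff.mp (h ▸ hT'S))
  obtain ⟨hW4, hW2, hcomm, -, -, -, hind⟩ :=
    Cfsg.Agent.Lib.Helper76.KS12.wsys_basic hComm hS2 hS1 hLS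
  have hperm := Cfsg.Agent.Lib.Helper76.KS12.wsys_perm hComm hS2 hS1 hLS hGen
  have hSN : Subgroup.normalizer ((S : Subgroup G) : Set G) ≤
      Subgroup.normalizer (thompsonSubgroupOf 2 (S : Subgroup G) : Set G) :=
    Cfsg.Agent.Lib.Helper11.normalizer_le_normalizer_thompsonSubgroupOf 2 (S : Subgroup G)
  have hSZ₀ : (S : Subgroup G) ≤ Subgroup.normalizer
      (omegaCenterOf (thompsonSubgroupOf 2 (S : Subgroup G)) : Set G) :=
    (Subgroup.le_normalizer.trans hSN).trans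
      (Cfsg.Agent.Lib.Helper85.KS12.normalizer_le_normalizer_omegaCenterOf _)
  exact step5_abstract hL hN hZ
    (fun i : {K : Subgroup G // IsJComponent (S : Subgroup G) K ∧ K ≤ L} => wOf i.1) S L hLS.1
    hW4 hW2 hcomm hind hk (fun i => (wOf_le i.1).trans i.2.2) hperm hP2 hP3
    (omegaCenterOf (thompsonSubgroupOf 2 (S : Subgroup G))) hSZ₀
    (fun i => (Cfsg.Agent.S2946.result hL hN hZ (S : Subgroup G) hS2 hS1 i.1 i.2.1 _ rfl).1)
    T' K' L' hT'2 hT'1 hT'S hK' hK'L hL'max hT'L' hZQ hcard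

end Cfsg.Agent.Lib.Helper81.KS12
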